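import Mathlib

/-!
# KS12 / S2953: the abstract lemma AL -- basic tools

General small lemmas (conjugation, normalizers in finite groups, groups of exponent two,
four-groups) and the hypothesis bundles of the abstract lemma.
-/

set_option autoImplicit false

namespace Cfsg.Agent.Lib.Helper90.KS12

variable {G : Type*} [Group G]

/-- In a finite group, an element conjugating `H` into itself normalizes `H`. -/
theorem mem_normalizer_of_conj_mem [Finite G] (H : Subgroup G) (g : G)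
    (h : ∀ y ∈ H, g * y * g⁻¹ ∈ H) : g ∈ Subgroup.normalizer (H : Set G) := by
  rw [Subgroup.mem_normalizer_iff]
  intro y
  refine ⟨h y, fun hy => ?_⟩
  let f : H → H := fun y => ⟨g * y * g⁻¹, h y y.2⟩
  have hf : Function.Injective f := by
    intro a b hab
    have h1 : g * (a : G) * g⁻¹ = g * (b : G) * g⁻¹ := congrArg Subtype.val hab
    exact Subtype.ext (by simpa using h1)
  obtain ⟨a, ha⟩ := Finite.surjective_of_injective hf ⟨g * y * g⁻¹, hy⟩
  have h2 : g * (a : G) * g⁻¹ = g * y * g⁻¹ := congrArg Subtype.val ha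
  have h3 : (a : G) = y := by simpa using h2
  rw [← h3]
  exact a.2

theorem mem_map_conj (H : Subgroup G) (g y : G) :
    y ∈ H.map (MulAut.conj g).toMonoidHom ↔ g⁻¹ * y * g ∈ H := by
  constructor
  · rintro ⟨a, ha, rfl⟩
    have h1 : g⁻¹ * ((MulAut.conj g).toMonoidHom a) * g = a := by
      simp [MulAut.conj_apply, mul_assoc]
    rw [h1]
    exact ha
  · intro h
    refine ⟨g⁻¹ * y * g, h, ?_⟩
    simp [MulAut.conj_apply, mul_assoc]

theorem mem_normalizer_iff_map (H : Subgroup G) (g : G) :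
    g ∈ Subgroup.normalizer (H : Set G) ↔ H.map (MulAut.conj g).toMonoidHom = H := by
  constructor
  · intro hg
    ext y
    rw [mem_map_conj]
    exact ((Subgroup.mem_normalizer_iff''.1 hg) y).symm
  · intro h
    rw [Subgroup.mem_normalizer_iff'']
    intro y
    rw [← mem_map_conj, h]

theorem map_map_conj (H : Subgroup G) (a b : G) :
    (H.map (MulAut.conj a).toMonoidHom).map (MulAut.conj b).toMonoidHom =
      H.map (MulAut.conj (b * a)).toMonoidHom := by
  ext y
  simp only [mem_map_conj]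
  have h1 : a⁻¹ * (b⁻¹ * y * b) * a = (b * a)⁻¹ * y * (b * a) := by group
  rw [h1]

theorem inv_eq_self_of_sq {a : G} (h : a * a = 1) : a⁻¹ = a :=
  inv_eq_of_mul_eq_one_left h

/-- A subgroup of exponent two is commutative. -/
theorem comm_of_sq (H : Subgroup G) (h2 : ∀ w ∈ H, w * w = 1) {a b : G} (ha : a ∈ H)
    (hb : b ∈ H) : a * b = b * a := by
  have h1 := h2 (a * b) (H.mul_mem ha hb)
  have ha' : a⁻¹ = a := inv_eq_self_of_sq (h2 a ha)
  have hb' : b⁻¹ = b := inv_eq_self_of_sq (h2 b hb)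
  calc a * b = (a * b)⁻¹ := (inv_eq_self_of_sq h1).symm
    _ = b⁻¹ * a⁻¹ := mul_inv_rev a b
    _ = b * a := by rw [ha', hb']

/-- If `g` normalizes `W'`, it normalizes its centralizer. -/
theorem conj_mem_centralizer (W' : Subgroup G) {g q : G}
    (hg : g ∈ Subgroup.normalizer (W' : Set G))
    (hq : q ∈ Subgroup.centralizer (W' : Set G)) :
    g * q * g⁻¹ ∈ Subgroup.centralizer (W' : Set G) := by
  rw [Subgroup.mem_centralizer_iff]
  intro b hb
  have hb' : g⁻¹ * b * g ∈ W' := (Subgroup.mem_normalizer_iff''.1 hg b).1 hb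
  have h1 := (Subgroup.mem_centralizer_iff.1 hq) _ hb'
  calc b * (g * q * g⁻¹) = g * ((g⁻¹ * b * g) * q) * g⁻¹ := by group
    _ = g * (q * (g⁻¹ * b * g)) * g⁻¹ := by rw [h1]
    _ = g * q * g⁻¹ * b := by group

theorem mul_mem_iff_of_relIndex_two (Q T : Subgroup G) (h : Q.relIndex T = 2) {a b : G}
    (ha : a ∈ T) (hb : b ∈ T) : a * b ∈ Q ↔ (a ∈ Q ↔ b ∈ Q) := by
  have h1 := Subgroup.mul_mem_iff_of_index_two (H := Q.subgroupOf T) h (a := ⟨a, ha⟩)
    (b := ⟨b, hb⟩)
  simpa [Subgroup.mem_subgroupOf] using h1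

/-- A subgroup of order 4 and exponent 2 consists of `1, a, b, a * b` for distinct nonidentity
`a, b`. -/
theorem four_elems [Finite G] (W : Subgroup G) (hW4 : Nat.card W = 4)
    (hW2 : ∀ w ∈ W, w * w = 1) (a b : G) (ha : a ∈ W) (hb : b ∈ W) (ha1 : a ≠ 1) (hb1 : b ≠ 1)
    (hab : a ≠ b) : ∀ v ∈ W, v = 1 ∨ v = a ∨ v = b ∨ v = a * b := by
  classical
  intro v hv
  by_contra hcon
  push_neg at hcon
  obtain ⟨h1, h2, h3, h4⟩ := hcon
  have hab1 : a * b ≠ 1 := by
    intro h
    exact hab (mul_left_cancel ((hW2 a ha).trans h.symm))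
  have haab : a ≠ a * b := by
    intro h
    exact hb1 (mul_left_cancel (((mul_one a).trans h).symm))
  have hbab : b ≠ a * b := by
    intro h
    exact ha1 (mul_right_cancel (((one_mul b).trans h).symm))
  have n4 : a * b ∉ ({v} : Finset G) := by
    rw [Finset.mem_singleton]
    exact fun h => h4 h.symm
  have n3 : b ∉ ({a * b, v} : Finset G) := by
    rw [Finset.mem_insert, Finset.mem_singleton]
    rintro (h | h)
    · exact hbab h
    · exact h3 h.symm
  have n2 : a ∉ ({b, a * b, v} : Finset G) := by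
    rw [Finset.mem_insert, Finset.mem_insert, Finset.mem_singleton]
    rintro (h | h | h)
    · exact hab h
    · exact haab h
    · exact h2 h.symm
  have n1 : (1 : G) ∉ ({a, b, a * b, v} : Finset G) := by
    rw [Finset.mem_insert, Finset.mem_insert, Finset.mem_insert, Finset.mem_singleton]
    rintro (h | h | h | h)
    · exact ha1 h.symm
    · exact hb1 h.symm
    · exact hab1 h.symm
    · exact h1 h.symm
  have hcard : ({1, a, b, a * b, v} : Finset G).card = 5 := by
    rw [Finset.card_insert_of_notMem n1, Finset.card_insert_of_notMem n2,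
      Finset.card_insert_of_notMem n3, Finset.card_insert_of_notMem n4, Finset.card_singleton]
  have hsub : ((({1, a, b, a * b, v} : Finset G) : Set G)) ⊆ (W : Set G) := by
    intro y hy
    simp only [Finset.coe_insert, Finset.coe_singleton, Set.mem_insert_iff,
      Set.mem_singleton_iff] at hy
    rcases hy with rfl | rfl | rfl | rfl | rfl
    · exact W.one_mem
    · exact ha
    · exact hb
    · exact W.mul_mem ha hb
    · exact hv
  have h5 := Set.ncard_le_ncard hsub (Set.toFinite _)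
  rw [Set.ncard_coe_finset, hcard] at h5
  have h6 : (W : Set G).ncard = 4 := by
    rw [← Nat.card_coe_set_eq]
    exact hW4
  omega

/-- A subgroup of order 4 has an element different from `1` and from a given `z`. -/
theorem exists_ne_of_card_four [Finite G] (W : Subgroup G) (hW4 : Nat.card W = 4) (z : G) :
    ∃ c ∈ W, c ≠ 1 ∧ c ≠ z := by
  by_contra hcon
  push_neg at hcon
  have hsub : (W : Set G) ⊆ ({1, z} : Set G) := by
    intro y hy
    by_cases h1 : y = 1
    · exact Or.inl h1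
    · exact Or.inr (hcon y hy h1)
  have h5 := Set.ncard_le_ncard hsub (Set.toFinite _)
  have h6 : (W : Set G).ncard = 4 := by
    rw [← Nat.card_coe_set_eq]
    exact hW4
  have h7 : ({1, z} : Set G).ncard ≤ 2 := by
    refine (Set.ncard_insert_le 1 {z}).trans ?_
    rw [Set.ncard_singleton]
  omega

theorem ne_bot_of_card_four (W : Subgroup G) (hW4 : Nat.card W = 4) : W ≠ ⊥ := by
  rintro rfl
  rw [Subgroup.card_bot] at hW4
  omega

/-- The hypotheses of the abstract lemma `AL` (with `W ≤ S`). -/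
structure Ctx (S T' K' W W' : Subgroup G) (x z : G) : Prop where
  hW4 : Nat.card ↥W = 4
  hW2 : ∀ w ∈ W, w * w = 1
  hSW : S ≤ Subgroup.normalizer (W : Set G)
  hzW : z ∈ W
  hz1 : z ≠ 1
  hzS : ∀ s ∈ S, s * z = z * s
  hP2 : ∀ u ∈ W, u ≠ 1 →
    Subgroup.centralizer ({u} : Set G) ≤ Subgroup.normalizer (W : Set G)
  hT'S : T' ≤ S
  hT'K' : T' ≤ Subgroup.normalizer (K' : Set G)
  hW'4 : Nat.card ↥W' = 4
  hW'2 : ∀ w ∈ W', w * w = 1
  hK'W' : K' ≤ Subgroup.normalizer (W' : Set G)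
  hT'W' : T' ≤ Subgroup.normalizer (W' : Set G)
  hW'T' : W' ≤ T'
  hQidx : (T' ⊓ Subgroup.centralizer (W' : Set G)).relIndex T' = 2
  hK'Q : K' ≤ Subgroup.normalizer
    ((T' ⊓ Subgroup.centralizer (W' : Set G) : Subgroup G) : Set G)
  hcomm : ⁅K', T'⁆ = K'
  hK'idx : (K' ⊓ Subgroup.centralizer (W' : Set G)).relIndex K' = 3
  hK'C : K' ⊓ Subgroup.centralizer (W' : Set G) ≤ T'
  hfp : ∃ k ∈ K', ∀ w ∈ W', k * w * k⁻¹ = w → w = 1
  hxS : x ∈ S
  hxT' : x ∈ Subgroup.normalizer (T' : Set G)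
  hxn : x ∉ T'
  hx2 : x * x ∈ T'
  hKP : ∀ X : Subgroup G, X ≠ ⊥ → X ≤ T' → K' ≤ Subgroup.normalizer (X : Set G) →
    T' ≤ Subgroup.normalizer (X : Set G) → ∀ s ∈ S, s ∈ Subgroup.normalizer (X : Set G) →
    s ∈ T'
  hno : ∀ c ∈ W, c ≠ 1 → ¬ K' ≤ Subgroup.centralizer ({c} : Set G)
  hWS : W ≤ S

/-- The output of steps 1-3: an involution `u ∈ T' \ Q` acting trivially on `Q / W'`. -/
structure UData (T' W' : Subgroup G) (u w0 : G) : Prop where
  hu : u ∈ T'
  huQ : u ∉ T' ⊓ Subgroup.centralizer (W' : Set G)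
  hu2 : u * u = 1
  hw0 : w0 ∈ W'
  hw01 : w0 ≠ 1
  huw0 : u * w0 = w0 * u
  hQu : ∀ q ∈ T' ⊓ Subgroup.centralizer (W' : Set G),
    q * u * q⁻¹ = u ∨ q * u * q⁻¹ = u * w0

namespace Ctx

variable {S T' K' W W' : Subgroup G} {x z : G}

theorem W'_le_Q (c : Ctx S T' K' W W' x z) :
    W' ≤ T' ⊓ Subgroup.centralizer (W' : Set G) := by
  intro a ha
  refine Subgroup.mem_inf.2 ⟨c.hW'T' ha, ?_⟩
  rw [Subgroup.mem_centralizer_iff]
  intro b hb
  exact comm_of_sq W' c.hW'2 hb ha

theorem Q_le_T' (_c : Ctx S T' K' W W' x z) :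
    T' ⊓ Subgroup.centralizer (W' : Set G) ≤ T' := inf_le_left

theorem Q_ne_bot (c : Ctx S T' K' W W' x z) :
    T' ⊓ Subgroup.centralizer (W' : Set G) ≠ ⊥ := by
  intro h
  have h1 := c.W'_le_Q
  rw [h, le_bot_iff] at h1
  exact ne_bot_of_card_four W' c.hW'4 h1

theorem T'_norm_Q [Finite G] (c : Ctx S T' K' W W' x z) :
    T' ≤ Subgroup.normalizer
      ((T' ⊓ Subgroup.centralizer (W' : Set G) : Subgroup G) : Set G) := by
  intro t ht
  apply mem_normalizer_of_conj_mem
  intro q hq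
  obtain ⟨hq1, hq2⟩ := Subgroup.mem_inf.1 hq
  exact Subgroup.mem_inf.2 ⟨T'.mul_mem (T'.mul_mem ht hq1) (T'.inv_mem ht),
    conj_mem_centralizer W' (c.hT'W' ht) hq2⟩

theorem mul_mem_iff_Q (c : Ctx S T' K' W W' x z) {a b : G} (ha : a ∈ T') (hb : b ∈ T') :
    a * b ∈ T' ⊓ Subgroup.centralizer (W' : Set G) ↔
      (a ∈ T' ⊓ Subgroup.centralizer (W' : Set G) ↔
        b ∈ T' ⊓ Subgroup.centralizer (W' : Set G)) :=
  mul_mem_iff_of_relIndex_two _ _ c.hQidx ha hb

/-- Conjugation by an element normalizing `Q` preserves `Q`. -/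
theorem conj_mem_Q_of_K' (c : Ctx S T' K' W W' x z) {k q : G} (hk : k ∈ K')
    (hq : q ∈ T' ⊓ Subgroup.centralizer (W' : Set G)) :
    k * q * k⁻¹ ∈ T' ⊓ Subgroup.centralizer (W' : Set G) :=
  (Subgroup.mem_normalizer_iff.1 (c.hK'Q hk) q).1 hq

theorem conj_mem_Q_of_T' [Finite G] (c : Ctx S T' K' W W' x z) {t q : G} (ht : t ∈ T')
    (hq : q ∈ T' ⊓ Subgroup.centralizer (W' : Set G)) :
    t * q * t⁻¹ ∈ T' ⊓ Subgroup.centralizer (W' : Set G) :=
  (Subgroup.mem_normalizer_iff.1 (c.T'_norm_Q ht) q).1 hq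

end Ctx

end Cfsg.Agent.Lib.Helper90.KS12
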