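import Mathlib
import Cfsg.Agent.Lib.Helper90.KS12.ALBasic

/-!
# KS12 / S2953: the abstract lemma AL, steps 4-7b (the tail)
-/

set_option autoImplicit false

namespace Cfsg.Agent.Lib.Helper90.KS12

open scoped commutatorElement

variable {G : Type*} [Group G]

namespace Ctx

variable {S T' K' W W' : Subgroup G} {x z : G}

/-- Step 4 (Lemma N): a subgroup `Y` with `W' ≤ Y ≤ Q` normalized by `Q` is normalized by `K'`
and by `T'`. -/
theorem lemN [Finite G] (c : Ctx S T' K' W W' x z) {u w0 : G} (d : UData T' W' u w0)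
    (Y : Subgroup G) (hWY : W' ≤ Y) (hYQ : Y ≤ T' ⊓ Subgroup.centralizer (W' : Set G))
    (hQY : T' ⊓ Subgroup.centralizer (W' : Set G) ≤ Subgroup.normalizer (Y : Set G)) :
    K' ≤ Subgroup.normalizer (Y : Set G) ∧ T' ≤ Subgroup.normalizer (Y : Set G) := by
  have huw0' : u * w0 * u⁻¹ = w0 := by rw [d.huw0]; group
  have key : ∀ k ∈ K', k * u * k⁻¹ ∈ Subgroup.normalizer (Y : Set G) := by
    intro k hk
    apply mem_normalizer_of_conj_mem
    intro y hy
    have hq : k⁻¹ * y * k ∈ T' ⊓ Subgroup.centralizer (W' : Set G) :=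
      (Subgroup.mem_normalizer_iff''.1 (c.hK'Q hk) y).1 (hYQ hy)
    rcases d.hQu (k⁻¹ * y * k)⁻¹ (Subgroup.inv_mem _ hq) with h | h
    · have h' : u * (k⁻¹ * y * k) = (k⁻¹ * y * k) * u := by
        calc u * (k⁻¹ * y * k)
            = (k⁻¹ * y * k) * ((k⁻¹ * y * k)⁻¹ * u * (k⁻¹ * y * k)⁻¹⁻¹) := by group
          _ = (k⁻¹ * y * k) * u := by rw [h]
      have e : k * u * k⁻¹ * y * (k * u * k⁻¹)⁻¹ = y := by
        calc k * u * k⁻¹ * y * (k * u * k⁻¹)⁻¹
            = k * (u * (k⁻¹ * y * k)) * u⁻¹ * k⁻¹ := by group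
          _ = k * ((k⁻¹ * y * k) * u) * u⁻¹ * k⁻¹ := by rw [h']
          _ = y := by group
      rw [e]
      exact hy
    · have h' : u * (k⁻¹ * y * k) = (k⁻¹ * y * k) * (u * w0) := by
        calc u * (k⁻¹ * y * k)
            = (k⁻¹ * y * k) * ((k⁻¹ * y * k)⁻¹ * u * (k⁻¹ * y * k)⁻¹⁻¹) := by group
          _ = (k⁻¹ * y * k) * (u * w0) := by rw [h]
      have e : k * u * k⁻¹ * y * (k * u * k⁻¹)⁻¹ = y * (k * w0 * k⁻¹) := by
        calc k * u * k⁻¹ * y * (k * u * k⁻¹)⁻¹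
            = k * (u * (k⁻¹ * y * k)) * u⁻¹ * k⁻¹ := by group
          _ = k * ((k⁻¹ * y * k) * (u * w0)) * u⁻¹ * k⁻¹ := by rw [h']
          _ = y * (k * (u * w0 * u⁻¹) * k⁻¹) := by group
          _ = y * (k * w0 * k⁻¹) := by rw [huw0']
      rw [e]
      exact Y.mul_mem hy
        (hWY ((Subgroup.mem_normalizer_iff.1 (c.hK'W' hk) w0).1 d.hw0))
  have hu1 : u ∈ Subgroup.normalizer (Y : Set G) := by
    have h1 := key 1 K'.one_mem
    simpa using h1
  have huinv : u⁻¹ ∉ T' ⊓ Subgroup.centralizer (W' : Set G) := by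
    intro h
    exact d.huQ (by simpa using Subgroup.inv_mem _ h)
  have hT : T' ≤ Subgroup.normalizer (Y : Set G) := by
    intro t ht
    by_cases htQ : t ∈ T' ⊓ Subgroup.centralizer (W' : Set G)
    · exact hQY htQ
    · have h1 : t * u⁻¹ ∈ T' ⊓ Subgroup.centralizer (W' : Set G) :=
        (c.mul_mem_iff_Q ht (T'.inv_mem d.hu)).2 ⟨fun h => absurd h htQ, fun h => absurd h huinv⟩
      have h2 : t = t * u⁻¹ * u := by group
      rw [h2]
      exact Subgroup.mul_mem _ (hQY h1) hu1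
  refine ⟨?_, hT⟩
  have hle : ⁅K', T'⁆ ≤ Subgroup.normalizer (Y : Set G) := by
    rw [Subgroup.commutator_le]
    intro k hk t ht
    have h1 : k * t * k⁻¹ ∈ Subgroup.normalizer (Y : Set G) := by
      by_cases htQ : t ∈ T' ⊓ Subgroup.centralizer (W' : Set G)
      · exact hQY (c.conj_mem_Q_of_K' hk htQ)
      · have h1 : t * u⁻¹ ∈ T' ⊓ Subgroup.centralizer (W' : Set G) :=
          (c.mul_mem_iff_Q ht (T'.inv_mem d.hu)).2
            ⟨fun h => absurd h htQ, fun h => absurd h huinv⟩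
        have h2 : k * t * k⁻¹ = (k * (t * u⁻¹) * k⁻¹) * (k * u * k⁻¹) := by group
        rw [h2]
        exact Subgroup.mul_mem _ (hQY (c.conj_mem_Q_of_K' hk h1)) (key k hk)
    have h3 : ⁅k, t⁆ = (k * t * k⁻¹) * t⁻¹ := by
      rw [commutatorElement_def]
    rw [h3]
    exact Subgroup.mul_mem _ h1 (Subgroup.inv_mem _ (hT ht))
  rw [c.hcomm] at hle
  exact hle

/-- `T'` normalizes the conjugate `x W' x⁻¹`. -/
theorem T'_norm_W'' (c : Ctx S T' K' W W' x z) :
    T' ≤ Subgroup.normalizer ((W'.map (MulAut.conj x).toMonoidHom : Subgroup G) : Set G) := by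
  intro t ht
  rw [mem_normalizer_iff_map, map_map_conj]
  have h1 : x⁻¹ * t * x ∈ T' := (Subgroup.mem_normalizer_iff''.1 c.hxT' t).1 ht
  have h2 : W'.map (MulAut.conj (x⁻¹ * t * x)).toMonoidHom = W' :=
    (mem_normalizer_iff_map W' _).1 (c.hT'W' h1)
  have h3 : t * x = x * (x⁻¹ * t * x) := by group
  rw [h3, ← map_map_conj, h2]

/-- Step 5: `x W' x⁻¹` is not contained in `Q`. -/
theorem W''_not_le [Finite G] (c : Ctx S T' K' W W' x z) {u w0 : G} (d : UData T' W' u w0) :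
    ¬ W'.map (MulAut.conj x).toMonoidHom ≤ T' ⊓ Subgroup.centralizer (W' : Set G) := by
  intro hle
  have hQY : T' ⊓ Subgroup.centralizer (W' : Set G) ≤
      Subgroup.normalizer ((W' ⊔ W'.map (MulAut.conj x).toMonoidHom : Subgroup G) : Set G) := by
    intro q hq
    have hq1 : q ∈ T' := (Subgroup.mem_inf.1 hq).1
    rw [mem_normalizer_iff_map, Subgroup.map_sup,
      (mem_normalizer_iff_map W' q).1 (c.hT'W' hq1),
      (mem_normalizer_iff_map _ q).1 (c.T'_norm_W'' hq1)]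
  obtain ⟨hK, hT⟩ := c.lemN d (W' ⊔ W'.map (MulAut.conj x).toMonoidHom) le_sup_left
    (sup_le c.W'_le_Q hle) hQY
  have hx : x ∈ Subgroup.normalizer
      ((W' ⊔ W'.map (MulAut.conj x).toMonoidHom : Subgroup G) : Set G) := by
    rw [mem_normalizer_iff_map, Subgroup.map_sup, map_map_conj,
      (mem_normalizer_iff_map W' (x * x)).1 (c.hT'W' c.hx2), sup_comm]
  have hne : (W' ⊔ W'.map (MulAut.conj x).toMonoidHom : Subgroup G) ≠ ⊥ := by
    intro h
    have h1 : W' ≤ (⊥ : Subgroup G) := h ▸ le_sup_left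
    exact ne_bot_of_card_four W' c.hW'4 (le_bot_iff.1 h1)
  exact c.hxn (c.hKP _ hne ((sup_le c.W'_le_Q hle).trans inf_le_left) hK hT x c.hxS hx)

end Ctx

end Cfsg.Agent.Lib.Helper90.KS12
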