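import Mathlib
import Cfsg.Agent.Lib.Helper90.KS12.ALTail

/-!
# KS12 / S2953: the abstract lemma AL, steps 6 and 7a
-/

set_option autoImplicit false

namespace Cfsg.Agent.Lib.Helper90.KS12

variable {G : Type*} [Group G]

/-- If conjugation by `g` maps a generating set into the closure, it maps the closure into
itself. -/
theorem conj_closure_mem (s : Set G) (g : G)
    (h : ∀ y ∈ s, g * y * g⁻¹ ∈ Subgroup.closure s) :
    ∀ y ∈ Subgroup.closure s, g * y * g⁻¹ ∈ Subgroup.closure s := by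
  intro y hy
  induction hy using Subgroup.closure_induction with
  | mem y hy => exact h y hy
  | one => simp
  | mul a b _ _ iha ihb =>
    have e : g * (a * b) * g⁻¹ = (g * a * g⁻¹) * (g * b * g⁻¹) := by group
    rw [e]
    exact Subgroup.mul_mem _ iha ihb
  | inv a _ iha =>
    have e : g * a⁻¹ * g⁻¹ = (g * a * g⁻¹)⁻¹ := by group
    rw [e]
    exact Subgroup.inv_mem _ iha

theorem comm_of_sq3 {w A : G} (h1 : w * w = 1) (h2 : (w * A) * (w * A) = 1) (h3 : A * A = 1) :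
    A * w = w * A := by
  calc A * w = w⁻¹ * (w * A * (w * A)) * A⁻¹ := by group
    _ = w⁻¹ * A⁻¹ := by rw [h2]; group
    _ = w * A := by rw [inv_eq_self_of_sq h1, inv_eq_self_of_sq h3]

theorem comm_of_central_mul {p q A : G} (h5 : (p * q) * A = A * (p * q)) (hcq : A * q = q * A)
    (h6 : q * q = 1) : p * A = A * p := by
  have hp_eq : p = (p * q) * q := by rw [mul_assoc, h6, mul_one]
  calc p * A = ((p * q) * q) * A := by rw [← hp_eq]
    _ = (p * q) * (q * A) := by group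
    _ = (p * q) * (A * q) := by rw [hcq]
    _ = ((p * q) * A) * q := by group
    _ = (A * (p * q)) * q := by rw [h5]
    _ = A * ((p * q) * q) := by group
    _ = A * p := by rw [← hp_eq]

namespace Ctx

variable {S T' K' W W' : Subgroup G} {x z : G}

theorem exists_a' [Finite G] (c : Ctx S T' K' W W' x z) {u w0 : G} (d : UData T' W' u w0) :
    ∃ a' ∈ W', x * a' * x⁻¹ ∉ T' ⊓ Subgroup.centralizer (W' : Set G) := by
  obtain ⟨y, hy, hyQ⟩ := SetLike.not_le_iff_exists.1 (c.W''_not_le d)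
  obtain ⟨a', ha', rfl⟩ := Subgroup.mem_map.1 hy
  exact ⟨a', ha', hyQ⟩

theorem conj_x_mem_T' (c : Ctx S T' K' W W' x z) {t : G} (ht : t ∈ T') : x * t * x⁻¹ ∈ T' :=
  (Subgroup.mem_normalizer_iff.1 c.hxT' t).1 ht

theorem conj_xinv_mem_T' (c : Ctx S T' K' W W' x z) {t : G} (ht : t ∈ T') :
    x⁻¹ * t * x ∈ T' :=
  (Subgroup.mem_normalizer_iff''.1 c.hxT' t).1 ht

theorem a''_sq (c : Ctx S T' K' W W' x z) {a' : G} (ha' : a' ∈ W') :
    (x * a' * x⁻¹) * (x * a' * x⁻¹) = 1 := by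
  have h1 : (x * a' * x⁻¹) * (x * a' * x⁻¹) = x * (a' * a') * x⁻¹ := by group
  rw [h1, c.hW'2 a' ha']
  group

theorem mul_mem_iff_Qx (c : Ctx S T' K' W W' x z) {a b : G} (ha : a ∈ T') (hb : b ∈ T') :
    x⁻¹ * (a * b) * x ∈ T' ⊓ Subgroup.centralizer (W' : Set G) ↔
      (x⁻¹ * a * x ∈ T' ⊓ Subgroup.centralizer (W' : Set G) ↔
        x⁻¹ * b * x ∈ T' ⊓ Subgroup.centralizer (W' : Set G)) := by
  have h1 : x⁻¹ * (a * b) * x = (x⁻¹ * a * x) * (x⁻¹ * b * x) := by group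
  rw [h1]
  exact c.mul_mem_iff_Q (c.conj_xinv_mem_T' ha) (c.conj_xinv_mem_T' hb)

theorem exists_b (c : Ctx S T' K' W W' x z) {a' : G} (ha' : a' ∈ W')
    (hnQ : x * a' * x⁻¹ ∉ T' ⊓ Subgroup.centralizer (W' : Set G)) :
    ∃ b ∈ W', x⁻¹ * b * x ∉ T' ⊓ Subgroup.centralizer (W' : Set G) := by
  have h1 : x * a' * x⁻¹ ∉ Subgroup.centralizer (W' : Set G) := fun h =>
    hnQ (Subgroup.mem_inf.2 ⟨c.conj_x_mem_T' (c.hW'T' ha'), h⟩)
  rw [Subgroup.mem_centralizer_iff] at h1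
  push Not at h1
  obtain ⟨b, hb, hne⟩ := h1
  refine ⟨b, hb, fun hQ => hne ?_⟩
  have h2 := (Subgroup.mem_centralizer_iff.1 (Subgroup.mem_inf.1 hQ).2) a' ha'
  calc b * (x * a' * x⁻¹) = x * ((x⁻¹ * b * x) * a') * x⁻¹ := by group
    _ = x * (a' * (x⁻¹ * b * x)) * x⁻¹ := by rw [h2]
    _ = x * a' * x⁻¹ * b := by group

theorem D_conj [Finite G] (c : Ctx S T' K' W W' x z) {d : G}
    (hd' : x⁻¹ * d * x ∈ T' ⊓ Subgroup.centralizer (W' : Set G)) :
    x * d * x⁻¹ ∈ T' ⊓ Subgroup.centralizer (W' : Set G) := by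
  have h1 : x * d * x⁻¹ = (x * x) * (x⁻¹ * d * x) * (x * x)⁻¹ := by group
  rw [h1]
  exact c.conj_mem_Q_of_T' c.hx2 hd'

/-- Step 6: `Q` has exponent two. -/
theorem Q_sq [Finite G] (c : Ctx S T' K' W W' x z) {u w0 : G} (d : UData T' W' u w0) :
    ∀ q ∈ T' ⊓ Subgroup.centralizer (W' : Set G), q * q = 1 := by
  obtain ⟨a', ha', hnQ⟩ := c.exists_a' d
  obtain ⟨b, hb, hbx⟩ := c.exists_b ha' hnQ
  have hbQ : b ∈ T' ⊓ Subgroup.centralizer (W' : Set G) := c.W'_le_Q hb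
  set Φ : Subgroup G :=
    Subgroup.closure {g | ∃ q ∈ T' ⊓ Subgroup.centralizer (W' : Set G), g = q * q} with hΦ
  have hgen : ∀ q ∈ T' ⊓ Subgroup.centralizer (W' : Set G), q * q ∈ Φ := fun q hq =>
    Subgroup.subset_closure ⟨q, hq, rfl⟩
  have hnorm : ∀ g : G, (∀ q ∈ T' ⊓ Subgroup.centralizer (W' : Set G),
      g * q * g⁻¹ ∈ T' ⊓ Subgroup.centralizer (W' : Set G)) →
      g ∈ Subgroup.normalizer (Φ : Set G) := by
    intro g hg
    apply mem_normalizer_of_conj_mem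
    apply conj_closure_mem
    rintro y ⟨q, hq, rfl⟩
    have e : g * (q * q) * g⁻¹ = (g * q * g⁻¹) * (g * q * g⁻¹) := by group
    rw [e]
    exact hgen _ (hg q hq)
  have hK : K' ≤ Subgroup.normalizer (Φ : Set G) := fun k hk =>
    hnorm k (fun q hq => c.conj_mem_Q_of_K' hk hq)
  have hT : T' ≤ Subgroup.normalizer (Φ : Set G) := fun t ht =>
    hnorm t (fun q hq => c.conj_mem_Q_of_T' ht hq)
  have hx : x ∈ Subgroup.normalizer (Φ : Set G) := by
    apply mem_normalizer_of_conj_mem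
    apply conj_closure_mem
    rintro y ⟨q, hq, rfl⟩
    have hqT : q ∈ T' := (Subgroup.mem_inf.1 hq).1
    by_cases hqx : x⁻¹ * q * x ∈ T' ⊓ Subgroup.centralizer (W' : Set G)
    · have e : x * (q * q) * x⁻¹ = (x * q * x⁻¹) * (x * q * x⁻¹) := by group
      rw [e]
      exact hgen _ (c.D_conj hqx)
    · have hdx : x⁻¹ * (q * b) * x ∈ T' ⊓ Subgroup.centralizer (W' : Set G) :=
        (c.mul_mem_iff_Qx hqT (c.hW'T' hb)).2 ⟨fun h => absurd h hqx, fun h => absurd h hbx⟩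
      have hbq : b * q = q * b := (Subgroup.mem_centralizer_iff.1 (Subgroup.mem_inf.1 hq).2) b hb
      have e1 : q * q = (q * b) * (q * b) := by
        calc q * q = q * q * (b * b) := by rw [c.hW'2 b hb, mul_one]
          _ = q * (q * b) * b := by group
          _ = q * (b * q) * b := by rw [hbq]
          _ = (q * b) * (q * b) := by group
      have e : x * (q * q) * x⁻¹ = (x * (q * b) * x⁻¹) * (x * (q * b) * x⁻¹) := by
        rw [e1]
        group
      rw [e]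
      exact hgen _ (c.D_conj hdx)
  have hΦT : Φ ≤ T' := by
    rw [hΦ, Subgroup.closure_le]
    rintro y ⟨q, hq, rfl⟩
    exact T'.mul_mem (Subgroup.mem_inf.1 hq).1 (Subgroup.mem_inf.1 hq).1
  have hbot : Φ = ⊥ := by
    by_contra hne
    exact c.hxn (c.hKP Φ hne hΦT hK hT x c.hxS hx)
  intro q hq
  have h1 := hgen q hq
  rw [hbot, Subgroup.mem_bot] at h1
  exact h1

theorem Q_comm [Finite G] (c : Ctx S T' K' W W' x z) {u w0 : G} (d : UData T' W' u w0)
    {p q : G} (hp : p ∈ T' ⊓ Subgroup.centralizer (W' : Set G))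
    (hq : q ∈ T' ⊓ Subgroup.centralizer (W' : Set G)) : p * q = q * p :=
  comm_of_sq _ (c.Q_sq d) hp hq

/-- Step 6, last part: `D = Q ∩ Q^x` is central in `T'`. -/
theorem D_central [Finite G] (c : Ctx S T' K' W W' x z) {u w0 : G} (d : UData T' W' u w0)
    {e : G} (he : e ∈ T' ⊓ Subgroup.centralizer (W' : Set G))
    (hex : x⁻¹ * e * x ∈ T' ⊓ Subgroup.centralizer (W' : Set G)) :
    ∀ t ∈ T', e * t = t * e := by
  obtain ⟨a', ha', hnQ⟩ := c.exists_a' d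
  have ha''T : x * a' * x⁻¹ ∈ T' := c.conj_x_mem_T' (c.hW'T' ha')
  have hcomm'' : e * (x * a' * x⁻¹) = (x * a' * x⁻¹) * e := by
    have h1 : (x⁻¹ * e * x) * a' = a' * (x⁻¹ * e * x) := c.Q_comm d hex (c.W'_le_Q ha')
    calc e * (x * a' * x⁻¹) = x * ((x⁻¹ * e * x) * a') * x⁻¹ := by group
      _ = x * (a' * (x⁻¹ * e * x)) * x⁻¹ := by rw [h1]
      _ = (x * a' * x⁻¹) * e := by group
  intro t ht
  by_cases htQ : t ∈ T' ⊓ Subgroup.centralizer (W' : Set G)
  · exact c.Q_comm d he htQ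
  · have hq : t * (x * a' * x⁻¹) ∈ T' ⊓ Subgroup.centralizer (W' : Set G) :=
      (c.mul_mem_iff_Q ht ha''T).2 ⟨fun h => absurd h htQ, fun h => absurd h hnQ⟩
    have h2 : e * (t * (x * a' * x⁻¹)) = (t * (x * a' * x⁻¹)) * e := c.Q_comm d he hq
    have h3 : t = (t * (x * a' * x⁻¹)) * (x * a' * x⁻¹) := by
      rw [mul_assoc, c.a''_sq ha', mul_one]
    calc e * t = e * ((t * (x * a' * x⁻¹)) * (x * a' * x⁻¹)) := by rw [← h3]
      _ = (e * (t * (x * a' * x⁻¹))) * (x * a' * x⁻¹) := by group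
      _ = ((t * (x * a' * x⁻¹)) * e) * (x * a' * x⁻¹) := by rw [h2]
      _ = (t * (x * a' * x⁻¹)) * (e * (x * a' * x⁻¹)) := by group
      _ = (t * (x * a' * x⁻¹)) * ((x * a' * x⁻¹) * e) := by rw [hcomm'']
      _ = ((t * (x * a' * x⁻¹)) * (x * a' * x⁻¹)) * e := by group
      _ = t * e := by rw [← h3]

theorem z_mem_Q (c : Ctx S T' K' W W' x z) (hWT' : W ≤ T') :
    z ∈ T' ⊓ Subgroup.centralizer (W' : Set G) := by
  refine Subgroup.mem_inf.2 ⟨hWT' c.hzW, ?_⟩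
  rw [Subgroup.mem_centralizer_iff]
  intro b hb
  exact c.hzS b (c.hT'S (c.hW'T' hb))

/-- Step 7a: `W ≤ Q`. -/
theorem W_le_Q [Finite G] (c : Ctx S T' K' W W' x z) {u w0 : G} (d : UData T' W' u w0)
    (hWT' : W ≤ T') : W ≤ T' ⊓ Subgroup.centralizer (W' : Set G) := by
  by_contra hcon
  obtain ⟨w, hw, hwQ⟩ := SetLike.not_le_iff_exists.1 hcon
  obtain ⟨a', ha', hnQ⟩ := c.exists_a' d
  have ha''T : x * a' * x⁻¹ ∈ T' := c.conj_x_mem_T' (c.hW'T' ha')
  have hzQ := c.z_mem_Q hWT'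
  have hw1 : w ≠ 1 := by
    rintro rfl
    exact hwQ (Subgroup.one_mem _)
  have hzw : z ≠ w := by
    rintro rfl
    exact hwQ hzQ
  -- the elements of `W ∩ Q` are `1` and `z`
  have hWQ : ∀ v ∈ W, v ∈ T' ⊓ Subgroup.centralizer (W' : Set G) → v = 1 ∨ v = z := by
    intro v hv hvQ
    rcases four_elems W c.hW4 c.hW2 z w c.hzW hw c.hz1 hw1 hzw v hv with h | h | h | h
    · exact Or.inl h
    · exact Or.inr h
    · exact absurd (h ▸ hvQ) hwQ
    · exfalso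
      apply hwQ
      have h1 : w = z⁻¹ * v := by rw [h]; group
      rw [h1]
      exact Subgroup.mul_mem _ (Subgroup.inv_mem _ hzQ) hvQ
  -- `w ∉ Q^x`
  have hwx : x⁻¹ * w * x ∉ T' ⊓ Subgroup.centralizer (W' : Set G) := by
    intro h
    have hmem : x⁻¹ * w * x ∈ W := (Subgroup.mem_normalizer_iff''.1 (c.hSW c.hxS) w).1 hw
    rcases hWQ _ hmem h with h1 | h1
    · apply hw1
      have h2 : w = x * (x⁻¹ * w * x) * x⁻¹ := by group
      rw [h2, h1]
      group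
    · apply hwQ
      have h2 : w = x * (x⁻¹ * w * x) * x⁻¹ := by group
      have h3 : x * z * x⁻¹ = z := by rw [c.hzS x c.hxS]; group
      rw [h2, h1, h3]
      exact hzQ
  -- `w = q * a''`
  have hwT : w ∈ T' := hWT' hw
  have hq : w * (x * a' * x⁻¹) ∈ T' ⊓ Subgroup.centralizer (W' : Set G) :=
    (c.mul_mem_iff_Q hwT ha''T).2 ⟨fun h => absurd h hwQ, fun h => absurd h hnQ⟩
  have hqT : w * (x * a' * x⁻¹) ∈ T' := (Subgroup.mem_inf.1 hq).1
  have hqx : x⁻¹ * (w * (x * a' * x⁻¹)) * x ∉ T' ⊓ Subgroup.centralizer (W' : Set G) := by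
    intro h
    have h1 : x⁻¹ * (x * a' * x⁻¹) * x ∈ T' ⊓ Subgroup.centralizer (W' : Set G) := by
      have h2 : x⁻¹ * (x * a' * x⁻¹) * x = a' := by group
      rw [h2]
      exact c.W'_le_Q ha'
    exact hwx (((c.mul_mem_iff_Qx hwT ha''T).1 h).2 h1)
  -- `a''` commutes with `q`
  have h4 : (x * a' * x⁻¹) * w = w * (x * a' * x⁻¹) :=
    comm_of_sq3 (c.hW2 w hw) (c.Q_sq d _ hq) (c.a''_sq ha')
  have hcq : (x * a' * x⁻¹) * (w * (x * a' * x⁻¹)) = (w * (x * a' * x⁻¹)) * (x * a' * x⁻¹) := by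
    rw [← mul_assoc, h4]
  -- `a''` centralizes `W'`
  have hcent : x * a' * x⁻¹ ∈ Subgroup.centralizer (W' : Set G) := by
    rw [Subgroup.mem_centralizer_iff]
    intro p hp
    have hpQ := c.W'_le_Q hp
    by_cases hpx : x⁻¹ * p * x ∈ T' ⊓ Subgroup.centralizer (W' : Set G)
    · exact c.D_central d hpQ hpx _ ha''T
    · have hpqx : x⁻¹ * (p * (w * (x * a' * x⁻¹))) * x ∈
          T' ⊓ Subgroup.centralizer (W' : Set G) :=
        (c.mul_mem_iff_Qx (c.hW'T' hp) hqT).2 ⟨fun h => absurd h hpx, fun h => absurd h hqx⟩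
      have h5 := c.D_central d (Subgroup.mul_mem _ hpQ hq) hpqx _ ha''T
      have h6 := c.Q_sq d _ hq
      exact comm_of_central_mul h5 hcq h6
  exact hnQ (Subgroup.mem_inf.2 ⟨ha''T, hcent⟩)

end Ctx

end Cfsg.Agent.Lib.Helper90.KS12
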